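/-
helper54: piece CNIL (double) of CALL S1356 (B&G Theorem 15.2): a subgroup of `M'` centralizing
`M_F` is nilpotent when the image of `M'` in `M / M_F` is nilpotent.
-/
import Mathlib
import Cfsg.Prelude.Def_OddOrderLocal

set_option autoImplicit false

namespace Cfsg.Agent.Helper54

open Cfsg Subgroup

universe u

variable {G : Type u} [Group G] [Finite G]

/-- CNIL. A subgroup `C ≤ M'` centralizing `M_F` is nilpotent, given that the image of `M'` in
`M/M_F` is nilpotent. -/
theorem bg56_cent_nil {M C : Subgroup G}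
    (hnil : Group.IsNilpotent ↥((commutator ↥M).map (QuotientGroup.mk' (Cfsg.fittingHall ↥M))))
    (hCM : C ≤ ⁅M, M⁆) (hCc : C ≤ centralizer (fittingHallOf M : Set G)) :
    Group.IsNilpotent ↥C := by
  have hMM : ⁅M, M⁆ ≤ M :=
    Subgroup.commutator_le.mpr fun a ha b hb =>
      M.mul_mem (M.mul_mem (M.mul_mem ha hb) (M.inv_mem ha)) (M.inv_mem hb)
  let i : ↥C →* ↥M := Subgroup.inclusion (hCM.trans hMM)
  let g : ↥C →* ↥M ⧸ Cfsg.fittingHall ↥M := (QuotientGroup.mk' (Cfsg.fittingHall ↥M)).comp i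
  have hi : ∀ c : ↥C, i c ∈ commutator ↥M := by
    intro c
    have h1 : (c : G) ∈ (commutator ↥M).map M.subtype := by
      rw [Subgroup.map_subtype_commutator]
      exact hCM c.2
    obtain ⟨y, hy, hyc⟩ := Subgroup.mem_map.mp h1
    have h2 : y = i c := Subtype.ext hyc
    rw [← h2]
    exact hy
  have hg : ∀ c : ↥C, g c ∈ (commutator ↥M).map (QuotientGroup.mk' (Cfsg.fittingHall ↥M)) :=
    fun c => Subgroup.mem_map_of_mem _ (hi c)
  let f : ↥C →* ↥((commutator ↥M).map (QuotientGroup.mk' (Cfsg.fittingHall ↥M))) :=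
    g.codRestrict _ hg
  haveI := hnil
  refine _root_.isNilpotent_of_ker_le_center f ?_
  intro c hc
  have h3 : g c = 1 := by
    have h4 := MonoidHom.mem_ker.mp hc
    have h5 : ((f c : ↥((commutator ↥M).map (QuotientGroup.mk' (Cfsg.fittingHall ↥M)))) :
        ↥M ⧸ Cfsg.fittingHall ↥M) = 1 := by rw [h4]; rfl
    exact h5
  have h6 : i c ∈ Cfsg.fittingHall ↥M := (QuotientGroup.eq_one_iff (i c)).mp h3
  have h7 : (c : G) ∈ fittingHallOf M := Subgroup.mem_map_of_mem M.subtype h6
  rw [Subgroup.mem_center_iff]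
  intro c'
  have h8 := mem_centralizer_iff.mp (hCc c'.2) (c : G) h7
  exact Subtype.ext h8.symm

end Cfsg.Agent.Helper54
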