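/-
helper54: piece FACT (double) of CALL S1356: M = K M' from the standard factorisation and
M' = U M_σ.
-/
import Mathlib
import Cfsg.Prelude.Def_OddOrderLocal
import Cfsg.Agent.Helper22.Transitivity
import Cfsg.Agent.Helper23.Trans

set_option autoImplicit false

namespace Cfsg.Agent.Helper54

open Cfsg Subgroup

universe u

variable {G : Type u} [Group G] [Finite G]

/-- FACT. `M = K M'` from the standard factorisation and `M' = U M_σ`. -/
theorem bg56_fact {M K U : Subgroup G} (hKU : IsSigmaDecomposition M K U)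
    (hder : ⁅M, M⁆ = U ⊔ sigmaCore M) : ∀ m ∈ M, ∃ k ∈ K, ∃ n ∈ ⁅M, M⁆, m = k * n := by
  intro m hm
  obtain ⟨u, hu, b, hb, rfl⟩ := hKU.compl.2.2.2 m hm
  have hKn : K ≤ normalizer (sigmaCore M : Set G) :=
    hKU.hall.1.trans (Cfsg.Agent.Helper23.le_normalizer_piCoreOf (sigma M) M)
  obtain ⟨k, hk, s, hs, rfl⟩ := Cfsg.Agent.Helper22.exists_mul_of_mem_sup' hKn hb
  have huD : u ∈ ⁅M, M⁆ := by rw [hder]; exact mem_sup_left hu
  have hsD : s ∈ ⁅M, M⁆ := by rw [hder]; exact mem_sup_right hs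
  have huM : u ∈ M := hKU.compl.1 hu
  have hkM : k ∈ M := hKU.hall.1 hk
  have hc := Subgroup.commutator_mem_commutator (inv_mem huM) (inv_mem hkM)
  rw [commutatorElement_def] at hc
  refine ⟨k, hk, u * (u⁻¹ * k⁻¹ * u⁻¹⁻¹ * k⁻¹⁻¹) * s, ?_, by group⟩
  exact mul_mem (mul_mem huD hc) hsD

end Cfsg.Agent.Helper54
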