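/-
helper54: piece KNE (double) of CALL S1356: a Hall κ(M)-subgroup is nontrivial when κ(M) ≠ ∅.
-/
import Mathlib
import Cfsg.Prelude.Def_OddOrderLocal

set_option autoImplicit false

namespace Cfsg.Agent.Helper54

open Cfsg Subgroup

universe u

variable {G : Type u} [Group G] [Finite G]

/-- KNE. A Hall `κ(M)`-subgroup is nontrivial when `κ(M) ≠ ∅`. -/
theorem bg56_K_ne_bot {M K : Subgroup G} (hne : (kappa M).Nonempty)
    (hK : IsPiHallOf (kappa M) K M) : K ≠ ⊥ := by
  obtain ⟨p, hp⟩ := hne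
  intro h
  apply hK.2.2 p hp.1 hp
  rw [h, Subgroup.relIndex_bot_left]
  exact hp.2.1

end Cfsg.Agent.Helper54
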