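import Cfsg.Agent.Helper68.BG63Defs
import Cfsg.Agent.Helper22.Transitivity
import Cfsg.Agent.Helper23.Trans
import Cfsg.Prelude.Def_OddOrderLocal

set_option autoImplicit false

namespace Cfsg.Agent.Helper54

open Cfsg Subgroup Cfsg.Agent.Helper68

universe u

variable {G : Type u} [Group G]

/-- Elements of `bg63C π U`, `U` abelian, are `π'`-elements of `U`. -/
theorem bg63cop_mem {U : Subgroup G} (hUc : IsMulCommutative U) (π : Set ℕ) {u : G}
    (hu : u ∈ bg63C π U) : u ∈ U ∧ ∀ q : ℕ, q.Prime → q ∣ orderOf u → q ∉ π := by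
  have hcomm : ∀ a ∈ U, ∀ b ∈ U, a * b = b * a := fun a ha b hb => by
    have h := hUc.is_comm.comm (⟨a, ha⟩ : U) ⟨b, hb⟩
    exact congrArg Subtype.val h
  have key : ∀ x : G, x ∈ Subgroup.closure {u : G | u ∈ U ∧ ∀ q : ℕ, q.Prime → q ∣ orderOf u →
      q ∉ π} → x ∈ U ∧ ∀ q : ℕ, q.Prime → q ∣ orderOf x → q ∉ π := by
    intro x hx
    induction hx using Subgroup.closure_induction with
    | mem x hx => exact hx
    | one =>
      refine ⟨one_mem _, fun q hq hd => ?_⟩
      rw [orderOf_one] at hd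
      exact absurd (Nat.dvd_one.mp hd) hq.one_lt.ne'
    | mul x y _ _ hx hy =>
      refine ⟨mul_mem hx.1 hy.1, fun q hq hd => ?_⟩
      have hc : Commute x y := hcomm x hx.1 y hy.1
      have h1 := hd.trans hc.orderOf_mul_dvd_lcm
      have h2 := h1.trans (Nat.lcm_dvd_mul _ _)
      rcases hq.dvd_mul.mp h2 with h | h
      · exact hx.2 q hq h
      · exact hy.2 q hq h
    | inv x _ hx =>
      refine ⟨inv_mem hx.1, fun q hq hd => ?_⟩
      rw [orderOf_inv] at hd
      exact hx.2 q hq hd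
  exact key u hu

/-- `bg63C π U` is stable under conjugation by the normalizer of `U`. -/
theorem bg63cop_conj {U : Subgroup G} (π : Set ℕ) {g : G} (hg : g ∈ normalizer (U : Set G))
    {c : G} (hc : c ∈ bg63C π U) : g * c * g⁻¹ ∈ bg63C π U := by
  have h1 : Subgroup.closure {u : G | u ∈ U ∧ ∀ q : ℕ, q.Prime → q ∣ orderOf u → q ∉ π} ≤
      (bg63C π U).comap (MulAut.conj g).toMonoidHom := by
    refine (Subgroup.closure_le _).mpr ?_
    intro u hu
    have h2 : g * u * g⁻¹ ∈ bg63C π U := by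
      apply bg63C_mem_of
      · exact (mem_normalizer_iff.mp hg u).mp hu.1
      · intro q hq hd
        have h3 := (MulAut.conj g).orderOf_eq u
        rw [MulAut.conj_apply] at h3
        rw [h3] at hd
        exact hu.2 q hq hd
    exact h2
  exact h1 hc

/-- `bg63C π U` is normalized by `N_G(U)`. -/
theorem bg63cop_norm {U : Subgroup G} (π : Set ℕ) {g : G} (hg : g ∈ normalizer (U : Set G)) :
    g ∈ normalizer (bg63C π U : Set G) := by
  rw [mem_normalizer_iff]
  intro h
  constructor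
  · intro hh
    exact bg63cop_conj π hg hh
  · intro hh
    have h1 := bg63cop_conj π (inv_mem hg) hh
    have e : g⁻¹ * (g * h * g⁻¹) * g⁻¹⁻¹ = h := by group
    rwa [e] at h1

variable [Finite G]

/-- CALL S1363, piece COP. `K · C` has order prime to `|H_σ|`. -/
theorem bg63_cop {H K U : Subgroup G} (hKp : (Nat.card K).Prime)
    (hpσ : Nat.card K ∉ sigma H) (hKU : K ≤ normalizer (U : Set G))
    (hUc : IsMulCommutative U) :
    (Nat.card ↥(K ⊔ bg63C (sigma H) U)).Coprime (Nat.card (sigmaCore H)) := by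
  have hKC : K ≤ normalizer (bg63C (sigma H) U : Set G) :=
    fun k hk => bg63cop_norm (sigma H) (hKU hk)
  have hdvd : Nat.card ↥(K ⊔ bg63C (sigma H) U) ∣ Nat.card K * Nat.card (bg63C (sigma H) U) :=
    Cfsg.Agent.Helper22.card_sup_dvd_of_le_normalizer hKC
  apply Nat.coprime_of_dvd
  intro q hq h1 h2
  have hqσ : q ∈ sigma H := Cfsg.Agent.Helper23.mem_of_dvd_card_piCoreOf (sigma H) H hq h2
  rcases hq.dvd_mul.mp (h1.trans hdvd) with h | h
  · have hqe : q = Nat.card K := (Nat.prime_dvd_prime_iff_eq hq hKp).mp h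
    rw [hqe] at hqσ
    exact hpσ hqσ
  · have : Fact q.Prime := ⟨hq⟩
    obtain ⟨c, hc⟩ := exists_prime_orderOf_dvd_card' (G := ↥(bg63C (sigma H) U)) q h
    have hco : orderOf (c : G) = q := by rw [Subgroup.orderOf_coe, hc]
    have h3 := (bg63cop_mem hUc (sigma H) c.2).2 q hq (by rw [hco])
    exact h3 hqσ

end Cfsg.Agent.Helper54
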