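import Cfsg.Agent.Helper68.BG63Defs
import Cfsg.Agent.Helper23.Trans
import Cfsg.Agent.Helper49.OddCyclic
import Cfsg.Prelude.Def_OddOrder
import Cfsg.Prelude.Def_OddOrderLocal

set_option autoImplicit false

namespace Cfsg.Agent.Helper54

open Cfsg Subgroup
open scoped Pointwise

universe u

variable {G : Type u} [Group G] [Finite G]

/-- CALL S1363, piece FPFA. If `K` (of prime order `p ∉ σ(H)`) has a fixed point on `H_σ` and
`H` has `p`-rank one, then `p ∈ κ(H)`. -/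
theorem bg63_fpf_rank1 (hG : IsMinSimpleOddOrder G) {H K : Subgroup G} (hKH : K ≤ H)
    (hKp : (Nat.card K).Prime) (hpσ : Nat.card K ∉ sigma H)
    (hrk : PRankLE (Nat.card K) 1 ↥H) {k y : G} (hk : k ∈ K) (hk1 : k ≠ 1)
    (hy : y ∈ sigmaCore H) (hy1 : y ≠ 1) (hky : k * y = y * k) : Nat.card K ∈ kappa H := by
  have : Fact (Nat.card K).Prime := ⟨hKp⟩
  have hpH : Nat.card K ∣ Nat.card H := Subgroup.card_dvd_of_le hKH
  have hp2 : Nat.card K ≠ 2 := by
    intro h2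
    have hodd : Odd (Nat.card G) := hG.1
    have hd : 2 ∣ Nat.card G := by
      rw [← h2]
      exact (Subgroup.card_subgroup_dvd_card K)
    exact (Nat.not_even_iff_odd.mpr hodd) (even_iff_two_dvd.mpr hd)
  refine ⟨hKp, hpH, hpσ, fun P => ⟨Cfsg.Agent.Helper49.isCyclic_sylow_of_pRankLE_one hp2 hrk P, ?_⟩⟩
  have hK₀ : IsPGroup (Nat.card K) (K.subgroupOf H) := by
    apply IsPGroup.of_card (n := 1)
    rw [Nat.card_congr (Subgroup.subgroupOfEquivOfLe hKH).toEquiv, pow_one]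
  obtain ⟨Q, hQ⟩ := hK₀.exists_le_sylow
  obtain ⟨g, hg⟩ := MulAction.exists_smul_eq H Q P
  have hkQ : (⟨k, hKH hk⟩ : H) ∈ (Q : Subgroup H) := hQ (Subgroup.mem_subgroupOf.mpr hk)
  have hxP : g * (⟨k, hKH hk⟩ : H) * g⁻¹ ∈ (P : Subgroup H) := by
    have h1 : MulAut.conj g • (⟨k, hKH hk⟩ : H) ∈ MulAut.conj g • (Q : Subgroup H) :=
      Subgroup.smul_mem_pointwise_smul _ _ _ hkQ
    rw [← hg, Sylow.coe_subgroup_smul]
    simpa [MulAut.smul_def] using h1
  refine ⟨g * (⟨k, hKH hk⟩ : H) * g⁻¹, hxP, ?_, (g : G) * y * (g : G)⁻¹, ?_, ?_, ?_⟩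
  · intro h
    apply hk1
    have h2 : (⟨k, hKH hk⟩ : H) = g⁻¹ * (g * (⟨k, hKH hk⟩ : H) * g⁻¹) * g := by group
    rw [h, mul_one, inv_mul_cancel] at h2
    exact congrArg Subtype.val h2
  · have hn := Cfsg.Agent.Helper23.le_normalizer_piCoreOf (sigma H) H g.2
    exact (mem_normalizer_iff.mp hn y).mp hy
  · intro h
    apply hy1
    have e : y = (g : G)⁻¹ * ((g : G) * y * (g : G)⁻¹) * (g : G) := by group
    rw [e, h]; group
  · have e1 : ((g * (⟨k, hKH hk⟩ : H) * g⁻¹ : H) : G) * ((g : G) * y * (g : G)⁻¹) =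
        (g : G) * (k * y) * (g : G)⁻¹ := by
      push_cast
      group
    have e2 : ((g : G) * y * (g : G)⁻¹) * ((g * (⟨k, hKH hk⟩ : H) * g⁻¹ : H) : G) =
        (g : G) * (y * k) * (g : G)⁻¹ := by
      push_cast
      group
    rw [e1, e2, hky]

end Cfsg.Agent.Helper54
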