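import Mathlib
import Cfsg.Agent.Helper54.MC2

/-!
# The "maximal component" lemma (helper54)

`mc_main`: in a group with the B-property and `O(G) = 1`, a component `K` of an involution
centralizer `C_G(a)` of maximal order, with `m_2(C_{C(a)}(K))` maximal among those, and with
`m_2(K) ≥ 2`, is a component of `C_G(b)` for every `b ≠ 1` in a largest elementary abelian
2-subgroup of `C_{C(a)}(K)`.  Names prefixed `mc_`.
-/

set_option autoImplicit false

namespace Cfsg.Agent.Helper54

open Cfsg Subgroup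

section MCel

variable {G : Type*} [Group G]

/-- elementwise form of "elementary abelian 2-subgroup" -/
def McEl (B : Subgroup G) : Prop :=
  (∀ x ∈ B, ∀ y ∈ B, x * y = y * x) ∧ ∀ x ∈ B, x * x = 1

theorem mc_el_iff {B : Subgroup G} : IsElementaryAbelian 2 B ↔ McEl B := by
  constructor
  · intro h
    have := h.1
    exact ⟨fun x hx y hy => congrArg Subtype.val (mul_comm' (⟨x, hx⟩ : B) ⟨y, hy⟩),
      fun x hx => by rw [← pow_two]; exact h.2 x hx⟩
  · intro h
    exact ⟨IsMulCommutative.of_comm (fun x y => Subtype.ext (h.1 x x.2 y y.2)),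
      fun x hx => by rw [pow_two]; exact h.2 x hx⟩

theorem mc_el_mono {B D : Subgroup G} (h : McEl B) (hle : D ≤ B) : McEl D :=
  ⟨fun x hx y hy => h.1 x (hle hx) y (hle hy), fun x hx => h.2 x (hle hx)⟩

theorem mc_el_sup {B D : Subgroup G} (hB : McEl B) (hD : McEl D)
    (h : ∀ x ∈ B, ∀ y ∈ D, x * y = y * x) : McEl (B ⊔ D) := by
  refine ⟨?_, ?_⟩
  · intro u hu v hv
    obtain ⟨x, hx, y, hy, rfl⟩ := mc_mem_sup_of_commute h hu
    obtain ⟨x', hx', y', hy', rfl⟩ := mc_mem_sup_of_commute h hv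
    have e1 := hB.1 x hx x' hx'
    have e2 := hD.1 y hy y' hy'
    have e3 := h x' hx' y hy
    have e4 := h x hx y' hy'
    calc x * y * (x' * y') = x * (y * x') * y' := by group
      _ = x * (x' * y) * y' := by rw [e3]
      _ = (x * x') * (y * y') := by group
      _ = (x' * x) * (y' * y) := by rw [e1, e2]
      _ = x' * (x * y') * y := by group
      _ = x' * (y' * x) * y := by rw [e4]
      _ = _ := by group
  · intro u hu
    obtain ⟨x, hx, y, hy, rfl⟩ := mc_mem_sup_of_commute h hu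
    have e := h x hx y hy
    calc x * y * (x * y) = x * (y * x) * y := by group
      _ = x * (x * y) * y := by rw [e]
      _ = (x * x) * (y * y) := by group
      _ = 1 := by rw [hB.2 x hx, hD.2 y hy, one_mul]

theorem mc_el_zpowers {a : G} (ha : a * a = 1) : McEl (Subgroup.zpowers a) := by
  refine ⟨?_, ?_⟩
  · intro x hx y hy
    obtain ⟨n, rfl⟩ := Subgroup.mem_zpowers_iff.1 hx
    obtain ⟨m, rfl⟩ := Subgroup.mem_zpowers_iff.1 hy
    exact ((Commute.refl a).zpow_zpow n m).eq
  · intro x hx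
    obtain ⟨n, rfl⟩ := Subgroup.mem_zpowers_iff.1 hx
    rw [← zpow_add, ← two_mul, zpow_mul, zpow_two, ha, one_zpow]

theorem mc_prank_of_forall {H : Subgroup G} {k : ℕ}
    (h : ∀ E : Subgroup G, E ≤ H → McEl E → Nat.card E ≤ 2 ^ k) : PRankLE 2 k ↥H := by
  intro A' hc he
  have h1 := h (A'.map H.subtype) (Subgroup.map_subtype_le A') ?_
  · rwa [Subgroup.card_map_of_injective (Subgroup.subtype_injective H)] at h1
  · refine ⟨?_, ?_⟩
    · rintro _ ⟨x, hx, rfl⟩ _ ⟨y, hy, rfl⟩
      have := congrArg Subtype.val (mul_comm' (⟨x, hx⟩ : A') ⟨y, hy⟩)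
      exact congrArg Subtype.val this
    · rintro _ ⟨x, hx, rfl⟩
      have := he x hx
      rw [pow_two] at this
      exact congrArg Subtype.val this

theorem mc_forall_of_prank {H : Subgroup G} {k : ℕ} (h : PRankLE 2 k ↥H) {E : Subgroup G}
    (hEH : E ≤ H) (hE : McEl E) : Nat.card E ≤ 2 ^ k := by
  have h1 := h (E.subgroupOf H)
    (IsMulCommutative.of_comm (fun x y => Subtype.ext (Subtype.ext
      (hE.1 _ (Subgroup.mem_subgroupOf.1 x.2) _ (Subgroup.mem_subgroupOf.1 y.2)))))
    (fun x hx => by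
      apply Subtype.ext
      rw [pow_two]
      exact hE.2 _ (Subgroup.mem_subgroupOf.1 hx))
  rwa [Nat.card_congr (Subgroup.subgroupOfEquivOfLe hEH).toEquiv] at h1

end MCel

section MCcount

variable {G : Type*} [Group G] [Finite G]

theorem mc_diag_card {a : G} {J K : Subgroup G}
    (hsurj : ∀ k ∈ K, ∃ j ∈ J, k = j * (a * j * a⁻¹)) : Nat.card K ≤ Nat.card J := by
  have hch : ∀ k : K, ∃ j : J, (k : G) = (j : G) * (a * (j : G) * a⁻¹) := fun k => by
    obtain ⟨j, hj, e⟩ := hsurj k k.2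
    exact ⟨⟨j, hj⟩, e⟩
  choose f hf using hch
  apply Nat.card_le_card_of_injective f
  intro x y hxy
  apply Subtype.ext
  rw [hf x, hf y, hxy]

theorem mc_diag_bij {a : G} {J K : Subgroup G}
    (hsurj : ∀ k ∈ K, ∃ j ∈ J, k = j * (a * j * a⁻¹)) (hcard : Nat.card J ≤ Nat.card K) :
    (∀ j ∈ J, j * (a * j * a⁻¹) ∈ K) ∧
    (∀ j ∈ J, ∀ j' ∈ J, j * (a * j * a⁻¹) = j' * (a * j' * a⁻¹) → j = j') := by
  have hch : ∀ k : K, ∃ j : J, (k : G) = (j : G) * (a * (j : G) * a⁻¹) := fun k => by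
    obtain ⟨j, hj, e⟩ := hsurj k k.2
    exact ⟨⟨j, hj⟩, e⟩
  choose f hf using hch
  have hfinj : Function.Injective f := by
    intro x y hxy
    apply Subtype.ext
    rw [hf x, hf y, hxy]
  have hfbij : Function.Bijective f := hfinj.bijective_of_nat_card_le hcard
  have hmem : ∀ j ∈ J, j * (a * j * a⁻¹) ∈ K := by
    intro j hj
    obtain ⟨k, hk⟩ := hfbij.2 ⟨j, hj⟩
    have := hf k
    rw [hk] at this
    rw [← this]; exact k.2
  refine ⟨hmem, ?_⟩
  intro j hj j' hj' e
  obtain ⟨k, hk⟩ := hfbij.2 ⟨j, hj⟩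
  obtain ⟨k', hk'⟩ := hfbij.2 ⟨j', hj'⟩
  have h1 := hf k
  rw [hk] at h1
  have h2 := hf k'
  rw [hk'] at h2
  have hkk : k = k' := Subtype.ext (by rw [h1, h2]; exact e)
  have := congrArg f hkk
  rw [hk, hk'] at this
  exact congrArg Subtype.val this

/-- **Rank lemma.** In the diagonal situation (`K = {j j^a}` with `j ↦ j j^a` injective on `J`),
an elementary abelian `B ∋ a` centralizing `K` and permuting `{J, J^a}`, and an elementary abelian
`A ≤ K`, give an elementary abelian subgroup of `(B ⊔ J) ∩ C(J^a)` of order at least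
`|B||A|/2`. -/
theorem mc_rank {a : G} (ha : a * a = 1) {J K A B : Subgroup G}
    (hcomm : ∀ x ∈ J, ∀ y ∈ J.map (MulAut.conj a).toMonoidHom, x * y = y * x)
    (hmem : ∀ j ∈ J, j * (a * j * a⁻¹) ∈ K)
    (hinj : ∀ j ∈ J, ∀ j' ∈ J, j * (a * j * a⁻¹) = j' * (a * j' * a⁻¹) → j = j')
    (hsurj : ∀ k ∈ K, ∃ j ∈ J, k = j * (a * j * a⁻¹))
    (hAK : A ≤ K) (hA : McEl A)
    (hBa : B ≤ centralizer {a}) (hBK : B ≤ centralizer (K : Set G)) (hB : McEl B) (haB : a ∈ B)
    (hBJ : ∀ x ∈ B, J.map (MulAut.conj x).toMonoidHom = J ∨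
      J.map (MulAut.conj x).toMonoidHom = J.map (MulAut.conj a).toMonoidHom) :
    ∃ E : Subgroup G, McEl E ∧ E ≤ B ⊔ J ∧
      E ≤ centralizer ((J.map (MulAut.conj a).toMonoidHom : Subgroup G) : Set G) ∧
      Nat.card B * Nat.card A ≤ 2 * Nat.card E := by
  classical
  set Ja := J.map (MulAut.conj a).toMonoidHom with hJa_def
  have hmemJa : ∀ j ∈ J, a * j * a⁻¹ ∈ Ja := fun j hj => ⟨j, hj, by simp [MulAut.conj_apply]⟩
  have hφmul : ∀ j ∈ J, ∀ j' ∈ J, (j * j') * (a * (j * j') * a⁻¹) =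
      (j * (a * j * a⁻¹)) * (j' * (a * j' * a⁻¹)) := by
    intro j hj j' hj'
    have := hcomm j' hj' _ (hmemJa j hj)
    calc (j * j') * (a * (j * j') * a⁻¹) = j * (j' * (a * j * a⁻¹)) * (a * j' * a⁻¹) := by group
      _ = j * ((a * j * a⁻¹) * j') * (a * j' * a⁻¹) := by rw [this]
      _ = _ := by group
  have hφone : (1 : G) * (a * 1 * a⁻¹) = 1 := by simp
  have hφinv : ∀ j ∈ J, j⁻¹ * (a * j⁻¹ * a⁻¹) = (j * (a * j * a⁻¹))⁻¹ := by
    intro j hj
    have := hcomm j⁻¹ (J.inv_mem hj) _ (hmemJa j⁻¹ (J.inv_mem hj))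
    rw [this]; group
  have hcenJ : ∀ x ∈ B, J.map (MulAut.conj x).toMonoidHom = J → x ∈ centralizer (J : Set G) := by
    intro x hx hxJ
    rw [mem_centralizer_iff]
    intro j hj
    have hxa : x * a = a * x := mem_centralizer_singleton_iff.1 (hBa hx)
    have hj' : x * j * x⁻¹ ∈ J := by
      rw [← hxJ]; exact ⟨j, hj, by simp [MulAut.conj_apply]⟩
    have hxK := mem_centralizer_iff.1 (hBK hx) _ (hmem j hj)
    have e : (x * j * x⁻¹) * (a * (x * j * x⁻¹) * a⁻¹) = j * (a * j * a⁻¹) := by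
      have hxa'' : x⁻¹ * a⁻¹ = a⁻¹ * x⁻¹ := by rw [← mul_inv_rev, ← mul_inv_rev, hxa]
      calc (x * j * x⁻¹) * (a * (x * j * x⁻¹) * a⁻¹)
          = x * j * x⁻¹ * (a * x) * j * (x⁻¹ * a⁻¹) := by group
        _ = x * j * x⁻¹ * (x * a) * j * (a⁻¹ * x⁻¹) := by rw [← hxa, hxa'']
        _ = x * (j * (a * j * a⁻¹)) * x⁻¹ := by group
        _ = (j * (a * j * a⁻¹)) * x * x⁻¹ := by rw [← hxK]
        _ = _ := by group
    have := hinj _ hj' _ hj e
    calc j * x = (x * j * x⁻¹) * x := by rw [this]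
      _ = x * j := by group
  set B₀ := B ⊓ centralizer (J : Set G) with hB₀
  have hcardB : Nat.card B ≤ 2 * Nat.card B₀ := by
    have hsub : (B : Set G) ⊆ (B₀ : Set G) ∪ (fun y => a * y) '' (B₀ : Set G) := by
      intro x hx
      rcases hBJ x hx with h | h
      · left; exact ⟨hx, hcenJ x hx h⟩
      · right
        refine ⟨a * x, ⟨B.mul_mem haB hx, hcenJ (a * x) (B.mul_mem haB hx) ?_⟩, ?_⟩
        · have : (MulAut.conj (a * x)).toMonoidHom =
              (MulAut.conj a).toMonoidHom.comp (MulAut.conj x).toMonoidHom := by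
            ext y; simp [MulAut.conj_apply, mul_assoc]
          rw [this, ← Subgroup.map_map, h, mc_conj_conj ha]
        · show a * (a * x) = x
          rw [← mul_assoc, ha, one_mul]
    calc Nat.card B = (B : Set G).ncard := (Nat.card_coe_set_eq (B : Set G))
      _ ≤ ((B₀ : Set G) ∪ (fun y => a * y) '' (B₀ : Set G)).ncard :=
          Set.ncard_le_ncard hsub (Set.toFinite _)
      _ ≤ (B₀ : Set G).ncard + ((fun y => a * y) '' (B₀ : Set G)).ncard := Set.ncard_union_le _ _
      _ ≤ (B₀ : Set G).ncard + (B₀ : Set G).ncard :=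
          Nat.add_le_add_left (Set.ncard_image_le (Set.toFinite _)) _
      _ = 2 * Nat.card B₀ := by
          rw [two_mul]; exact congrArg₂ _ (Nat.card_coe_set_eq (B₀ : Set G)).symm
            (Nat.card_coe_set_eq (B₀ : Set G)).symm
  let AJ : Subgroup G :=
    { carrier := {j | j ∈ J ∧ j * (a * j * a⁻¹) ∈ A}
      one_mem' := ⟨J.one_mem, by rw [hφone]; exact A.one_mem⟩
      mul_mem' := by
        rintro j j' ⟨hj, hjA⟩ ⟨hj', hjA'⟩
        exact ⟨J.mul_mem hj hj', by rw [hφmul j hj j' hj']; exact A.mul_mem hjA hjA'⟩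
      inv_mem' := by
        rintro j ⟨hj, hjA⟩
        exact ⟨J.inv_mem hj, by rw [hφinv j hj]; exact A.inv_mem hjA⟩ }
  have hAJ_J : AJ ≤ J := fun j hj => hj.1
  have hAJel : McEl AJ := by
    refine ⟨?_, ?_⟩
    · rintro j ⟨hj, hjA⟩ j' ⟨hj', hjA'⟩
      apply hinj _ (J.mul_mem hj hj') _ (J.mul_mem hj' hj)
      rw [hφmul j hj j' hj', hφmul j' hj' j hj]
      exact hA.1 _ hjA _ hjA'
    · rintro j ⟨hj, hjA⟩
      apply hinj _ (J.mul_mem hj hj) _ J.one_mem
      rw [hφmul j hj j hj, hφone]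
      exact hA.2 _ hjA
  have hcardA : Nat.card A ≤ Nat.card AJ := by
    have hch : ∀ x : A, ∃ j : AJ, (x : G) = (j : G) * (a * (j : G) * a⁻¹) := by
      intro x
      obtain ⟨j, hj, e⟩ := hsurj x (hAK x.2)
      exact ⟨⟨j, hj, by rw [← e]; exact x.2⟩, e⟩
    choose f hf using hch
    apply Nat.card_le_card_of_injective f
    intro x y hxy
    apply Subtype.ext
    rw [hf x, hf y, hxy]
  have hB₀J : ∀ x ∈ B₀, ∀ y ∈ J, x * y = y * x := fun x hx y hy =>
    (mem_centralizer_iff.1 hx.2 y hy).symm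
  have hB₀AJ : ∀ x ∈ B₀, ∀ y ∈ AJ, x * y = y * x := fun x hx y hy => hB₀J x hx y (hAJ_J hy)
  have hB₀el : McEl B₀ := mc_el_mono hB inf_le_left
  refine ⟨B₀ ⊔ AJ, mc_el_sup hB₀el hAJel hB₀AJ, sup_le_sup inf_le_left hAJ_J, ?_, ?_⟩
  · refine sup_le ?_ ?_
    · intro x hx
      rw [mem_centralizer_iff]
      rintro _ ⟨j, hj, rfl⟩
      have hxa : x * a = a * x := mem_centralizer_singleton_iff.1 (hBa hx.1)
      have hxj := hB₀J x hx j hj
      simp only [MulEquiv.coe_toMonoidHom, MulAut.conj_apply]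
      have hxa'' : a⁻¹ * x = x * a⁻¹ := by
        calc a⁻¹ * x = a⁻¹ * (x * a) * a⁻¹ := by group
          _ = a⁻¹ * (a * x) * a⁻¹ := by rw [hxa]
          _ = _ := by group
      calc a * j * a⁻¹ * x = a * j * (a⁻¹ * x) := by group
        _ = a * j * (x * a⁻¹) := by rw [hxa'']
        _ = a * (j * x) * a⁻¹ := by group
        _ = a * (x * j) * a⁻¹ := by rw [hxj]
        _ = (a * x) * j * a⁻¹ := by group
        _ = (x * a) * j * a⁻¹ := by rw [hxa]
        _ = _ := by group
    · intro y hy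
      rw [mem_centralizer_iff]
      intro u hu
      exact (hcomm y (hAJ_J hy) u hu).symm
  · have hinf : ∀ t, t ∈ B₀ → t ∈ AJ → t = 1 := by
      intro t ht htA
      have hta : t * a = a * t := mem_centralizer_singleton_iff.1 (hBa ht.1)
      have htt : t * t = 1 := hB.2 t ht.1
      apply hinj t htA.1 1 J.one_mem
      rw [hφone]
      calc t * (a * t * a⁻¹) = t * ((t * a) * a⁻¹) := by rw [hta]
        _ = t * t := by group
        _ = 1 := htt
    have hprod : Nat.card B₀ * Nat.card AJ ≤ Nat.card (B₀ ⊔ AJ : Subgroup G) := by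
      rw [← Nat.card_prod]
      apply Nat.card_le_card_of_injective (fun p : B₀ × AJ =>
        (⟨(p.1 : G) * (p.2 : G), mul_mem (mem_sup_left p.1.2) (mem_sup_right p.2.2)⟩ :
          (B₀ ⊔ AJ : Subgroup G)))
      rintro ⟨x, y⟩ ⟨x', y'⟩ h
      have h' : (x : G) * (y : G) = (x' : G) * (y' : G) := congrArg Subtype.val h
      have ht : (x' : G)⁻¹ * (x : G) = (y' : G) * (y : G)⁻¹ := by
        calc (x' : G)⁻¹ * (x : G) = (x' : G)⁻¹ * ((x : G) * (y : G)) * (y : G)⁻¹ := by group
          _ = (x' : G)⁻¹ * ((x' : G) * (y' : G)) * (y : G)⁻¹ := by rw [h']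
          _ = _ := by group
      have h1 := hinf _ (B₀.mul_mem (B₀.inv_mem x'.2) x.2)
        (by rw [ht]; exact AJ.mul_mem y'.2 (AJ.inv_mem y.2))
      have hx : (x : G) = x' := by
        calc (x : G) = (x' : G) * ((x' : G)⁻¹ * (x : G)) := by group
          _ = x' := by rw [h1, mul_one]
      have hy : (y : G) = y' := by
        have h2 : (y' : G) * (y : G)⁻¹ = 1 := by rw [← ht, h1]
        calc (y : G) = ((y' : G) * (y : G)⁻¹)⁻¹ * (y' : G) := by group
          _ = y' := by rw [h2]; simp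
      exact Prod.ext (Subtype.ext hx) (Subtype.ext hy)
    calc Nat.card B * Nat.card A ≤ (2 * Nat.card B₀) * Nat.card AJ :=
          Nat.mul_le_mul hcardB hcardA
      _ = 2 * (Nat.card B₀ * Nat.card AJ) := by ring
      _ ≤ 2 * Nat.card (B₀ ⊔ AJ : Subgroup G) := Nat.mul_le_mul_left 2 hprod

end MCcount

section MCmain

variable {G : Type*} [Group G] [Finite G]

omit [Finite G] in
/-- two joins of pairwise commuting subgroups commute -/
theorem mc_sup_commute {A B C D : Subgroup G} (h1 : ∀ x ∈ A, ∀ y ∈ C, x * y = y * x)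
    (h2 : ∀ x ∈ A, ∀ y ∈ D, x * y = y * x) (h3 : ∀ x ∈ B, ∀ y ∈ C, x * y = y * x)
    (h4 : ∀ x ∈ B, ∀ y ∈ D, x * y = y * x) : ∀ u ∈ A ⊔ B, ∀ v ∈ C ⊔ D, u * v = v * u := by
  have hle : A ⊔ B ≤ centralizer ((C ⊔ D : Subgroup G) : Set G) := by
    refine sup_le ?_ ?_
    · rw [Subgroup.le_centralizer_iff]
      refine sup_le ?_ ?_
      · intro y hy; rw [mem_centralizer_iff]; intro x hx; exact h1 x hx y hy
      · intro y hy; rw [mem_centralizer_iff]; intro x hx; exact h2 x hx y hy
    · rw [Subgroup.le_centralizer_iff]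
      refine sup_le ?_ ?_
      · intro y hy; rw [mem_centralizer_iff]; intro x hx; exact h3 x hx y hy
      · intro y hy; rw [mem_centralizer_iff]; intro x hx; exact h4 x hx y hy
  intro u hu v hv
  exact (mem_centralizer_iff.1 (hle hu) v hv).symm

/-- **Maximal component lemma.** -/
theorem mc_main (hO : oddCore G = ⊥) (hB : HasBProperty G)
    (a : G) (ha : orderOf a = 2) (K : Subgroup G)
    (hKa : K ≤ Subgroup.centralizer ({a} : Set G))
    (hK : IsComponent (K.subgroupOf (Subgroup.centralizer ({a} : Set G))))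
    (hmax : ∀ y : G, orderOf y = 2 → ∀ K' : Subgroup G,
      K' ≤ Subgroup.centralizer ({y} : Set G) →
      IsComponent (K'.subgroupOf (Subgroup.centralizer ({y} : Set G))) →
      Nat.card ↥K' ≤ Nat.card ↥K ∧ (Nat.card ↥K' = Nat.card ↥K → ∀ k : ℕ,
        PRankLE 2 k ↥(Subgroup.centralizer ({a} : Set G) ⊓ Subgroup.centralizer (K : Set G)) →
        PRankLE 2 k ↥(Subgroup.centralizer ({y} : Set G) ⊓ Subgroup.centralizer (K' : Set G))))
    (hrk : ¬ PRankLE 2 1 ↥K) (B : Subgroup G)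
    (hBle : B ≤ Subgroup.centralizer ({a} : Set G) ⊓ Subgroup.centralizer (K : Set G))
    (hBel : IsElementaryAbelian 2 B)
    (hBmax : ∀ B' : Subgroup G,
      B' ≤ Subgroup.centralizer ({a} : Set G) ⊓ Subgroup.centralizer (K : Set G) →
      IsElementaryAbelian 2 B' → Nat.card ↥B' ≤ Nat.card ↥B)
    (b : G) (hb : b ∈ B) (hb1 : b ≠ 1) :
    K ≤ Subgroup.centralizer ({b} : Set G) ∧
      IsComponent (K.subgroupOf (Subgroup.centralizer ({b} : Set G))) := by
  classical
  have : Fact (Nat.Prime 2) := ⟨Nat.prime_two⟩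
  set Ca := Subgroup.centralizer ({a} : Set G) with hCa
  set Cb := Subgroup.centralizer ({b} : Set G) with hCb
  have haa : a * a = 1 := by rw [← pow_two, ← ha, pow_orderOf_eq_one]
  have hKc : IsComponentOf K Ca := ⟨hKa, hK⟩
  have hBE : McEl B := mc_el_iff.1 hBel
  have hbb : b * b = 1 := hBE.2 b hb
  have hb2 : orderOf b = 2 := orderOf_eq_prime (by rw [pow_two]; exact hbb) hb1
  have hBa : B ≤ Ca := hBle.trans inf_le_left
  have hBK : B ≤ Subgroup.centralizer (K : Set G) := hBle.trans inf_le_right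
  have hab : a * b = b * a := (mem_centralizer_singleton_iff.1 (hBa hb)).symm
  have haCb : a ∈ Cb := by rw [hCb, mem_centralizer_singleton_iff]; exact hab
  have hKb : K ≤ Cb := by
    intro k hk
    rw [hCb, mem_centralizer_singleton_iff]
    exact mem_centralizer_iff.1 (hBK hb) k hk
  have hBCb : B ≤ Cb := by
    intro x hx
    rw [hCb, mem_centralizer_singleton_iff]
    exact hBE.1 x hx b hb
  have hqs : IsQuasisimple ↥K :=
    Cfsg.Agent.Helper22.isQuasisimple_of_equiv (Subgroup.subgroupOfEquivOfLe hKa) hK.2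
  have hperf : ⁅K, K⁆ = K := Cfsg.Agent.Helper22.quasisimple_commutator_eq hqs
  have hK1 : K ≠ ⊥ := Cfsg.Agent.Helper22.quasisimple_ne_bot hqs
  -- an elementary abelian subgroup of `K` of order `> 2`
  obtain ⟨A, hAK, hAE, hAcard⟩ : ∃ A : Subgroup G, A ≤ K ∧ McEl A ∧ 2 < Nat.card A := by
    by_contra hno
    apply hrk
    apply mc_prank_of_forall
    intro E hE hEl
    by_contra hcard
    exact hno ⟨E, hE, hEl, by simpa using hcard⟩
  have h2K : 2 ∣ Nat.card K := by
    have hAne : A ≠ ⊥ := by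
      intro h
      rw [h, Subgroup.card_bot] at hAcard
      omega
    obtain ⟨x, hx1⟩ := (Subgroup.ne_bot_iff_exists_ne_one.1 hAne)
    have hxA : (x : G) ∈ A := x.2
    have hxo : orderOf (x : G) = 2 :=
      orderOf_eq_prime (by rw [pow_two]; exact hAE.2 _ hxA) (by
        intro h; exact hx1 (Subtype.ext h))
    have h1 : orderOf (⟨(x : G), hAK hxA⟩ : K) = 2 := by
      rw [Subgroup.orderOf_mk]; exact hxo
    rw [← h1]
    exact orderOf_dvd_natCard _
  -- layer step and core lemma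
  have hKE := mc_le_sSup hO hB haa hb2 hab hKc hKb h2K
  obtain ⟨J, hJ, hKJ⟩ := mc_core haa {J : Subgroup G | IsComponentOf J Cb}
    (fun J hJ I hI hne => mc_compOf_commute hJ hI hne)
    (fun J hJ => mc_compOf_conj hJ haCb) hKE hKa hperf hK1
    (fun M hM hnorm =>
      mc_compOf_dich (mc_compOf_mono hKc (le_inf hKE hKa) inf_le_right) hM hnorm)
  have hJ' : IsComponentOf J Cb := hJ
  set Ja := J.map (MulAut.conj a).toMonoidHom with hJa_def
  have hJa : IsComponentOf Ja Cb := mc_compOf_conj hJ' haCb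
  have hJcard : Nat.card J ≤ Nat.card K := (hmax b hb2 J hJ'.1 hJ'.2).1
  by_cases hJJa : Ja = J
  · have hKJ' : K ≤ J := by rw [hJJa, sup_idem] at hKJ; exact hKJ
    have : K = J := Subgroup.eq_of_le_of_card_ge hKJ' hJcard
    rw [this]; exact hJ'
  · exfalso
    have hcomm : ∀ x ∈ J, ∀ y ∈ Ja, x * y = y * x :=
      mc_compOf_commute hJ' hJa (Ne.symm hJJa)
    have hsurj := mc_diag haa hcomm hKJ hKa hperf
    obtain ⟨hmem, hinj⟩ := mc_diag_bij hsurj hJcard
    have hKJcard : Nat.card K = Nat.card J := le_antisymm (mc_diag_card hsurj) hJcard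
    -- `a ∈ B`
    have haB : a ∈ B := by
      have hza : Subgroup.zpowers a ≤ Ca ⊓ Subgroup.centralizer (K : Set G) := by
        rw [Subgroup.zpowers_le]
        refine Subgroup.mem_inf.2 ⟨by rw [hCa, mem_centralizer_singleton_iff], ?_⟩
        rw [mem_centralizer_iff]
        intro k hk
        exact mem_centralizer_singleton_iff.1 (hKa hk)
      have hel : McEl (B ⊔ Subgroup.zpowers a) := by
        apply mc_el_sup hBE (mc_el_zpowers haa)
        intro x hx y hy
        obtain ⟨n, rfl⟩ := Subgroup.mem_zpowers_iff.1 hy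
        have hc : Commute x a := mem_centralizer_singleton_iff.1 (hBa hx)
        exact (hc.zpow_right n).eq
      have hcard := hBmax _ (sup_le hBle hza) (mc_el_iff.2 hel)
      have heq : B = B ⊔ Subgroup.zpowers a := Subgroup.eq_of_le_of_card_ge le_sup_left hcard
      rw [heq]
      exact mem_sup_right (Subgroup.mem_zpowers a)
    -- `B` permutes `{J, J^a}`
    have hBJ : ∀ x ∈ B, J.map (MulAut.conj x).toMonoidHom = J ∨
        J.map (MulAut.conj x).toMonoidHom = Ja := by
      intro x hx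
      by_contra hno
      push Not at hno
      obtain ⟨hn1, hn2⟩ := hno
      set Jx := J.map (MulAut.conj x).toMonoidHom with hJx_def
      have hJx : IsComponentOf Jx Cb := mc_compOf_conj hJ' (hBCb hx)
      set Jxa := Jx.map (MulAut.conj a).toMonoidHom with hJxa_def
      have hJxa : IsComponentOf Jxa Cb := mc_compOf_conj hJx haCb
      have hn3 : Jxa ≠ J := by
        intro h
        apply hn2
        have := congrArg (Subgroup.map (MulAut.conj a).toMonoidHom) h
        rwa [hJxa_def, mc_conj_conj haa] at this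
      have hn4 : Jxa ≠ Ja := by
        intro h
        apply hn1
        have := congrArg (Subgroup.map (MulAut.conj a).toMonoidHom) h
        rwa [hJxa_def, mc_conj_conj haa, hJa_def, mc_conj_conj haa] at this
      have hxa : x * a = a * x := mem_centralizer_singleton_iff.1 (hBa hx)
      have hKx : K ≤ Jx ⊔ Jxa := by
        intro k hk
        obtain ⟨j, hj, y, hy, rfl⟩ := mc_mem_sup_of_commute hcomm (hKJ hk)
        obtain ⟨j', hj', rfl⟩ := hy
        have hkx : (j * (MulAut.conj a).toMonoidHom j') * x = x * (j * (MulAut.conj a).toMonoidHom j') :=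
          mem_centralizer_iff.1 (hBK hx) _ hk
        have e : j * (MulAut.conj a).toMonoidHom j' =
            (x * j * x⁻¹) * (a * (x * j' * x⁻¹) * a⁻¹) := by
          have hxa'' : x⁻¹ * a⁻¹ = a⁻¹ * x⁻¹ := by rw [← mul_inv_rev, ← mul_inv_rev, hxa]
          simp only [MulEquiv.coe_toMonoidHom, MulAut.conj_apply] at hkx ⊢
          calc j * (a * j' * a⁻¹) = (j * (a * j' * a⁻¹)) * x * x⁻¹ := by group
            _ = x * (j * (a * j' * a⁻¹)) * x⁻¹ := by rw [hkx]
            _ = x * j * x⁻¹ * (x * a) * j' * (a⁻¹ * x⁻¹) := by group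
            _ = x * j * x⁻¹ * (a * x) * j' * (x⁻¹ * a⁻¹) := by rw [hxa, hxa'']
            _ = _ := by group
        rw [e]
        refine mul_mem (mem_sup_left ⟨j, hj, by simp [MulAut.conj_apply]⟩)
          (mem_sup_right ⟨x * j' * x⁻¹, ⟨j', hj', by simp [MulAut.conj_apply]⟩, by
            simp [MulAut.conj_apply]⟩)
      have hcc := mc_sup_commute (mc_compOf_commute hJ' hJx (Ne.symm hn1))
        (mc_compOf_commute hJ' hJxa (Ne.symm hn3)) (mc_compOf_commute hJa hJx (Ne.symm hn2))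
        (mc_compOf_commute hJa hJxa (Ne.symm hn4))
      apply hK1
      apply mc_eq_bot_of_le_centralizer hperf
      intro k hk
      rw [mem_centralizer_iff]
      intro k' hk'
      exact hcc k' (hKJ hk') k (hKx hk)
    obtain ⟨E, hEel, hEle, hEcen, hEcard⟩ :=
      mc_rank haa hcomm hmem hinj hsurj hAK hAE hBa hBK hBE haB hBJ
    have hJacard : Nat.card Ja = Nat.card J :=
      Subgroup.card_map_of_injective (MulAut.conj a).injective
    obtain ⟨-, hrank⟩ := hmax b hb2 Ja hJa.1 hJa.2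
    have hrank' := hrank (by rw [hJacard, hKJcard])
    obtain ⟨k, hk⟩ : ∃ k, Nat.card B = 2 ^ k := by
      have hBp : IsPGroup 2 B := by
        intro x
        refine ⟨1, ?_⟩
        apply Subtype.ext
        rw [pow_one, pow_two]
        exact hBE.2 _ x.2
      exact hBp.exists_card_eq
    have hP : PRankLE 2 k ↥(Ca ⊓ Subgroup.centralizer (K : Set G)) := by
      apply mc_prank_of_forall
      intro E' hE' hEl'
      rw [← hk]
      exact hBmax E' hE' (mc_el_iff.2 hEl')
    have hQ := hrank' k hP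
    have hEle' : E ≤ Cb ⊓ Subgroup.centralizer (Ja : Set G) :=
      le_inf (hEle.trans (sup_le hBCb hJ'.1)) hEcen
    have hEk := mc_forall_of_prank hQ hEle' hEel
    rw [← hk] at hEk
    have hBpos : 0 < Nat.card B := Nat.card_pos
    nlinarith [hEcard, hEk, hAcard, hBpos]

end MCmain

end Cfsg.Agent.Helper54
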